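import Mathlib

/-!
helper7: linear-algebra-free tools for the fixed point formula of a Frobenius group acting on an
abelian group (Vandermonde argument, traces, counting).
-/

set_option autoImplicit false

namespace Cfsg.Agent.Helper7.Frob

variable {Γ : Type*} [Group Γ] {A : Type*} [AddCommGroup A] [DistribMulAction Γ A]

/-- Fixed points of `Y` in `K`. -/
def fixIn (Y : Subgroup Γ) (K : AddSubgroup A) : AddSubgroup A where
  carrier := {v | v ∈ K ∧ ∀ y ∈ Y, y • v = v}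
  zero_mem' := ⟨K.zero_mem, fun y _ => smul_zero y⟩
  add_mem' := by
    rintro a b ⟨ha, ha'⟩ ⟨hb, hb'⟩
    exact ⟨K.add_mem ha hb, fun y hy => by rw [smul_add, ha' y hy, hb' y hy]⟩
  neg_mem' := by
    rintro a ⟨ha, ha'⟩
    exact ⟨K.neg_mem ha, fun y hy => by rw [smul_neg, ha' y hy]⟩

theorem mem_fixIn {Y : Subgroup Γ} {K : AddSubgroup A} {v : A} :
    v ∈ fixIn Y K ↔ v ∈ K ∧ ∀ y ∈ Y, y • v = v := Iff.rfl

theorem fixIn_le (Y : Subgroup Γ) (K : AddSubgroup A) : fixIn Y K ≤ K := fun _ h => h.1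

theorem fixIn_bot (K : AddSubgroup A) : fixIn (⊥ : Subgroup Γ) K = K := by
  ext v
  rw [mem_fixIn]
  constructor
  · exact fun h => h.1
  · intro h
    refine ⟨h, fun y hy => ?_⟩
    rw [Subgroup.mem_bot] at hy
    rw [hy, one_smul]

theorem nsmul_inj_A [Finite A] (n : ℕ) (h : (Nat.card A).Coprime n) {v : A} (hn : n • v = 0) :
    v = 0 := by
  have h1 : addOrderOf v ∣ Nat.card A := addOrderOf_dvd_natCard v
  have h2 : addOrderOf v ∣ n := addOrderOf_dvd_of_nsmul_eq_zero hn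
  have h3 : addOrderOf v = 1 := (Nat.Coprime.coprime_dvd_left h1 h).eq_one_of_dvd h2
  exact AddMonoid.addOrderOf_eq_one_iff.mp h3

theorem nsmul_surj [Finite A] (L : AddSubgroup A) (n : ℕ) (h : (Nat.card A).Coprime n) (w : L) :
    ∃ w' : L, n • (w' : A) = (w : A) := by
  have hs : Function.Surjective (fun x : L => n • x) := by
    apply Finite.injective_iff_surjective.mp
    intro x x' hxx
    have h0 : n • (x : A) = n • (x' : A) := by
      rw [← AddSubgroup.coe_nsmul, ← AddSubgroup.coe_nsmul]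
      exact congrArg Subtype.val hxx
    have h1 : n • ((x : A) - (x' : A)) = 0 := by rw [smul_sub, h0, sub_self]
    exact Subtype.ext (sub_eq_zero.mp (nsmul_inj_A n h h1))
  obtain ⟨w', hw'⟩ := hs w
  refine ⟨w', ?_⟩
  rw [← AddSubgroup.coe_nsmul]
  exact congrArg Subtype.val hw'

theorem card_eq_ker_mul {B C : Type*} [AddGroup B] [AddGroup C] (f : B →+ C)
    (hf : Function.Surjective f) : Nat.card B = Nat.card f.ker * Nat.card C := by
  rw [AddSubgroup.card_eq_card_quotient_mul_card_addSubgroup f.ker,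
    Nat.card_congr (QuotientAddGroup.quotientKerEquivOfSurjective f hf).toEquiv, mul_comm]

theorem card_sub_eq (K : AddSubgroup A) (L : AddSubgroup K) (M : AddSubgroup A) (hMK : M ≤ K)
    (h : ∀ v : K, v ∈ L ↔ (v : A) ∈ M) : Nat.card L = Nat.card M :=
  Nat.card_congr
    { toFun := fun v => ⟨((v : K) : A), (h v).mp v.2⟩
      invFun := fun v => ⟨⟨(v : A), hMK v.2⟩, (h _).mpr v.2⟩
      left_inv := fun _ => Subtype.ext (Subtype.ext rfl)
      right_inv := fun _ => Subtype.ext rfl }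

theorem pow_mem_of (W : AddSubgroup A) (g : Γ) (h : ∀ w ∈ W, g • w ∈ W) (k : ℕ) :
    ∀ w ∈ W, g ^ k • w ∈ W := by
  induction k with
  | zero => intro w hw; rw [pow_zero, one_smul]; exact hw
  | succ k ih => intro w hw; rw [pow_succ, mul_smul]; exact ih _ (h w hw)

theorem pow_comm_of (W : AddSubgroup A) (g g' : Γ) (h : ∀ w ∈ W, g • w ∈ W)
    (hc : ∀ w ∈ W, g • g' • w = g' • g • w) (k : ℕ) :
    ∀ w ∈ W, g ^ k • g' • w = g' • g ^ k • w := by
  induction k with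
  | zero => intro w _; rw [pow_zero, one_smul, one_smul]
  | succ k ih =>
    intro w hw
    calc g ^ (k + 1) • g' • w = g ^ k • g • g' • w := by rw [pow_succ, mul_smul]
      _ = g ^ k • g' • g • w := by rw [hc w hw]
      _ = g' • g ^ k • g • w := ih _ (h w hw)
      _ = g' • g ^ (k + 1) • w := by rw [pow_succ, mul_smul]

/-- Vandermonde: pairwise "separated" commuting nodes. -/
theorem vand {ι : Type*} [DecidableEq ι] (W : AddSubgroup A) (y : ι → Γ)
    (hcl : ∀ i, ∀ w ∈ W, y i • w ∈ W)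
    (hcomm : ∀ i j, ∀ w ∈ W, y i • y j • w = y j • y i • w)
    (hinj : ∀ i j, i ≠ j → ∀ w ∈ W, y i • w = y j • w → w = 0) :
    ∀ (s : Finset ι) (w : ι → A), (∀ i ∈ s, w i ∈ W) →
      (∀ k < s.card, ∑ i ∈ s, y i ^ k • w i = 0) → ∀ i ∈ s, w i = 0 := by
  intro s
  refine Finset.induction_on s ?_ ?_
  · intro w _ _ i hi
    simp at hi
  · intro a t ha ih w hw hsum
    have h1 : ∀ i ∈ t, y i • w i - y a • w i = 0 := by
      apply ih (fun i => y i • w i - y a • w i)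
      · intro i hi
        exact W.sub_mem (hcl i _ (hw i (Finset.mem_insert_of_mem hi)))
          (hcl a _ (hw i (Finset.mem_insert_of_mem hi)))
      · intro k hk
        have hk1 : k + 1 < (insert a t).card := by
          rw [Finset.card_insert_of_notMem ha]; omega
        have hk0 : k < (insert a t).card := by omega
        have e1 := hsum (k + 1) hk1
        have e0 := hsum k hk0
        rw [Finset.sum_insert ha] at e1 e0
        have e2 : ∑ i ∈ t, y i ^ k • (y i • w i - y a • w i)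
            = (∑ i ∈ t, y i ^ (k + 1) • w i) - y a • ∑ i ∈ t, y i ^ k • w i := by
          rw [Finset.smul_sum, ← Finset.sum_sub_distrib]
          refine Finset.sum_congr rfl (fun i hi => ?_)
          rw [smul_sub, pow_comm_of W (y i) (y a) (hcl i) (hcomm i a) k _
            (hw i (Finset.mem_insert_of_mem hi)), pow_succ, mul_smul]
        have e3 : ∑ i ∈ t, y i ^ (k + 1) • w i = - (y a ^ (k + 1) • w a) :=
          eq_neg_of_add_eq_zero_right e1
        have e4 : ∑ i ∈ t, y i ^ k • w i = - (y a ^ k • w a) :=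
          eq_neg_of_add_eq_zero_right e0
        show ∑ i ∈ t, y i ^ k • (y i • w i - y a • w i) = 0
        rw [e2, e3, e4, smul_neg, pow_succ', mul_smul, sub_self]
    have h2 : ∀ i ∈ t, w i = 0 := by
      intro i hi
      have hia : i ≠ a := fun h => ha (h ▸ hi)
      exact hinj i a hia (w i) (hw i (Finset.mem_insert_of_mem hi)) (sub_eq_zero.mp (h1 i hi))
    intro i hi
    rcases Finset.mem_insert.mp hi with h | hi
    · rw [h]
      have e0 := hsum 0 (by rw [Finset.card_insert_of_notMem ha]; omega)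
      have e5 : ∑ j ∈ t, y j ^ 0 • w j = 0 :=
        Finset.sum_eq_zero (fun j hj => by rw [h2 j hj, smul_zero])
      rw [Finset.sum_insert ha, e5, add_zero, pow_zero, one_smul] at e0
      exact e0
    · exact h2 i hi

/-- Vandermonde bijection: if the `S`-conjugates of `y₀` act on `W` as pairwise separated
commuting operators, then `|W| = |C_W(S)| ^ |S|`. -/
theorem vb [Finite Γ] [Finite A] (S : Subgroup Γ) (W : AddSubgroup A) (y₀ : Γ)
    (hS : ∀ g ∈ S, ∀ w ∈ W, g • w ∈ W)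
    (hcl : ∀ g ∈ S, ∀ w ∈ W, (g * y₀ * g⁻¹) • w ∈ W)
    (hcomm : ∀ g ∈ S, ∀ h ∈ S, ∀ w ∈ W,
      (g * y₀ * g⁻¹) • (h * y₀ * h⁻¹) • w = (h * y₀ * h⁻¹) • (g * y₀ * g⁻¹) • w)
    (hinj : ∀ g ∈ S, ∀ h ∈ S, g ≠ h → ∀ w ∈ W,
      (g * y₀ * g⁻¹) • w = (h * y₀ * h⁻¹) • w → w = 0) :
    Nat.card W = Nat.card (fixIn S W) ^ Nat.card S := by
  classical
  haveI : Fintype S := Fintype.ofFinite S
  obtain ⟨y, hy⟩ : ∃ y : S → Γ, y = fun g : S => (g : Γ) * y₀ * (g : Γ)⁻¹ := ⟨_, rfl⟩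
  have hy' : ∀ g : S, y g = (g : Γ) * y₀ * (g : Γ)⁻¹ := fun g => by rw [hy]
  have hcl' : ∀ i, ∀ w ∈ W, y i • w ∈ W := fun i w hw => by
    rw [hy']; exact hcl i i.2 w hw
  have hcomm' : ∀ i j, ∀ w ∈ W, y i • y j • w = y j • y i • w := fun i j w hw => by
    rw [hy', hy']; exact hcomm i i.2 j j.2 w hw
  have hinj' : ∀ i j, i ≠ j → ∀ w ∈ W, y i • w = y j • w → w = 0 := fun i j hij w hw h => by
    rw [hy', hy'] at h
    exact hinj i i.2 j j.2 (fun h' => hij (Subtype.ext h')) w hw h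
  have hV := vand W y hcl' hcomm' hinj' Finset.univ
  have hyconj : ∀ (h g : S) (k : ℕ), y (h * g) ^ k = (h : Γ) * y g ^ k * (h : Γ)⁻¹ := by
    intro h g k
    rw [← conj_pow, hy', hy']
    congr 1
    simp only [Subgroup.coe_mul, mul_inv_rev, mul_assoc]
  obtain ⟨T, hT⟩ : ∃ T : (S → W) → (Fin (Fintype.card S) → W),
      ∀ w k, ((T w k : W) : A) = ∑ g : S, y g ^ (k : ℕ) • (w g : A) :=
    ⟨fun w k => ⟨∑ g : S, y g ^ (k : ℕ) • (w g : A),
      W.sum_mem (fun g _ => pow_mem_of W _ (hcl' g) k _ (w g).2)⟩, fun w k => rfl⟩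
  have hTinj : Function.Injective T := by
    intro w w' hww
    have h0 : ∀ i ∈ (Finset.univ : Finset S), (w i : A) - (w' i : A) = 0 := by
      apply hV (fun i => (w i : A) - (w' i : A))
      · intro i _; exact W.sub_mem (w i).2 (w' i).2
      · intro k hk
        rw [Finset.card_univ] at hk
        have e : ((T w ⟨k, hk⟩ : W) : A) = ((T w' ⟨k, hk⟩ : W) : A) := by rw [hww]
        rw [hT, hT] at e
        have e' : ∑ g : S, y g ^ k • (w g : A) = ∑ g : S, y g ^ k • (w' g : A) := e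
        simp only [smul_sub, Finset.sum_sub_distrib]
        rw [e', sub_self]
    funext i
    exact Subtype.ext (sub_eq_zero.mp (h0 i (Finset.mem_univ i)))
  have hTbij : Function.Bijective T := by
    have hc : Nat.card (Fin (Fintype.card S) → W) = Nat.card (S → W) := by
      rw [Nat.card_fun, Nat.card_fun, Nat.card_fin, Nat.card_eq_fintype_card (α := S)]
    exact hTinj.bijective_of_nat_card_le hc.le
  have htw : ∀ (h : S) (w w' : S → W), (∀ g, (w' g : A) = (h : Γ)⁻¹ • (w (h * g) : A)) →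
      ∀ k, ((T w' k : W) : A) = (h : Γ)⁻¹ • ((T w k : W) : A) := by
    intro h w w' hw' k
    rw [hT, hT, Finset.smul_sum]
    refine Fintype.sum_equiv (Equiv.mulLeft h) _ _ (fun g => ?_)
    show y g ^ (k : ℕ) • (w' g : A) = (h : Γ)⁻¹ • y (h * g) ^ (k : ℕ) • (w (h * g) : A)
    rw [hyconj, hw', ← mul_smul, ← mul_smul]
    congr 1
    generalize y g ^ (k : ℕ) = a
    group
  obtain ⟨wv, hwv⟩ : ∃ wv : W → S → W, ∀ v g, ((wv v g : W) : A) = (g : Γ) • (v : A) :=
    ⟨fun v g => ⟨(g : Γ) • (v : A), hS g g.2 v v.2⟩, fun v g => rfl⟩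
  have hfixT : ∀ (v : W) k, ((T (wv v) k : W) : A) ∈ fixIn S W := by
    intro v k
    refine mem_fixIn.mpr ⟨(T _ k).2, fun h hh => ?_⟩
    have h1 := htw (⟨h, hh⟩⁻¹ : S) (wv v) (wv v) (fun g => ?_) k
    · rw [Subgroup.coe_inv, inv_inv] at h1
      exact h1.symm
    · rw [hwv, hwv, ← mul_smul]
      congr 1
      rw [Subgroup.coe_mul, inv_mul_cancel_left]
  obtain ⟨Φ, hΦ⟩ : ∃ Φ : W → (Fin (Fintype.card S) → fixIn S W),
      ∀ v k, ((Φ v k : fixIn S W) : A) = ((T (wv v) k : W) : A) :=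
    ⟨fun v k => ⟨_, hfixT v k⟩, fun v k => rfl⟩
  have hΦinj : Function.Injective Φ := by
    intro v v' hvv
    have h1 : T (wv v) = T (wv v') := by
      funext k
      apply Subtype.ext
      rw [← hΦ, ← hΦ, hvv]
    have h2 : wv v 1 = wv v' 1 := congrFun (hTinj h1) 1
    have h3 : ((wv v 1 : W) : A) = ((wv v' 1 : W) : A) := by rw [h2]
    rw [hwv, hwv, Subgroup.coe_one, one_smul, one_smul] at h3
    exact Subtype.ext h3
  have hΦsurj : Function.Surjective Φ := by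
    intro f
    obtain ⟨w, hw⟩ := hTbij.2 (fun k => ⟨(f k : A), (mem_fixIn.mp (f k).2).1⟩)
    have hwk : ∀ k, ((T w k : W) : A) = (f k : A) := fun k => by rw [hw]
    have hfk : ∀ k, ∀ h ∈ S, h • (f k : A) = (f k : A) := fun k => (mem_fixIn.mp (f k).2).2
    have key : ∀ h : S, (w h : A) = (h : Γ) • (w 1 : A) := by
      intro h
      obtain ⟨w', hw'⟩ : ∃ w' : S → W, ∀ g, ((w' g : W) : A) = (h : Γ)⁻¹ • (w (h * g) : A) :=
        ⟨fun g => ⟨(h : Γ)⁻¹ • (w (h * g) : A), hS _ (S.inv_mem h.2) _ (w (h * g)).2⟩,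
          fun g => rfl⟩
      have h1 : T w' = T w := by
        funext k
        apply Subtype.ext
        rw [htw h w w' hw' k, hwk, hfk k _ (S.inv_mem h.2)]
      have h2 : w' 1 = w 1 := congrFun (hTinj h1) 1
      have h3 : ((w' 1 : W) : A) = ((w 1 : W) : A) := by rw [h2]
      rw [hw', mul_one] at h3
      rw [← h3, smul_inv_smul]
    have hww : wv (w 1) = w := by
      funext g
      apply Subtype.ext
      rw [hwv, key g]
    refine ⟨w 1, ?_⟩
    funext k
    apply Subtype.ext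
    rw [hΦ, hww, hwk]
  have hcard := Nat.card_congr (Equiv.ofBijective Φ ⟨hΦinj, hΦsurj⟩)
  rw [hcard, Nat.card_fun, Nat.card_fin, Nat.card_eq_fintype_card (α := S)]

theorem fpf_aux (U : Subgroup Γ) (e : Γ) (hfpf : ∀ u ∈ U, e * u = u * e → u = 1)
    (b c : Γ) (hb : b ∈ U) (hc : c ∈ U) (h1 : b⁻¹ * (e * b * e⁻¹) = c⁻¹ * (e * c * e⁻¹)) :
    b = c := by
  have h2 : e * (c * b⁻¹) = (c * b⁻¹) * e := by
    calc e * (c * b⁻¹) = c * (c⁻¹ * (e * c * e⁻¹)) * e * b⁻¹ := by group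
      _ = c * (b⁻¹ * (e * b * e⁻¹)) * e * b⁻¹ := by rw [h1]
      _ = (c * b⁻¹) * e := by group
  have h4 : c * b⁻¹ = 1 := hfpf _ (U.mul_mem hc (U.inv_mem hb)) h2
  exact (mul_inv_eq_one.mp h4).symm

theorem fpf_mem [Finite Γ] (U B : Subgroup Γ) (e : Γ) (hfpf : ∀ u ∈ U, e * u = u * e → u = 1)
    (hBU : B ≤ U) (hB : ∀ b ∈ B, e * b * e⁻¹ ∈ B) (u : Γ) (hu : u ∈ U)
    (h : u⁻¹ * (e * u * e⁻¹) ∈ B) : u ∈ B := by
  obtain ⟨φ, hφ⟩ : ∃ φ : B → B, ∀ b, ((φ b : B) : Γ) = (b : Γ)⁻¹ * (e * b * e⁻¹) :=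
    ⟨fun b => ⟨(b : Γ)⁻¹ * (e * b * e⁻¹), B.mul_mem (B.inv_mem b.2) (hB b b.2)⟩, fun b => rfl⟩
  have hinj : Function.Injective φ := by
    intro b c hbc
    apply Subtype.ext
    apply fpf_aux U e hfpf _ _ (hBU b.2) (hBU c.2)
    rw [← hφ, ← hφ, hbc]
  obtain ⟨b, hb⟩ := (Finite.injective_iff_surjective.mp hinj) ⟨_, h⟩
  have h1 : (b : Γ)⁻¹ * (e * b * e⁻¹) = u⁻¹ * (e * u * e⁻¹) := by
    rw [← hφ, hb]
  have h2 := fpf_aux U e hfpf _ _ (hBU b.2) hu h1
  rw [← h2]
  exact b.2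

theorem conj_mem_iff [Finite Γ] (B : Subgroup Γ) (e : Γ) (h : ∀ a ∈ B, e * a * e⁻¹ ∈ B) :
    ∀ a, a ∈ B ↔ e * a * e⁻¹ ∈ B := by
  intro a
  refine ⟨h a, fun ha => ?_⟩
  obtain ⟨φ, hφ⟩ : ∃ φ : B → B, ∀ b, ((φ b : B) : Γ) = e * (b : Γ) * e⁻¹ :=
    ⟨fun b => ⟨e * (b : Γ) * e⁻¹, h b b.2⟩, fun b => rfl⟩
  have hinj : Function.Injective φ := by
    intro b c hbc
    have h1 : e * (b : Γ) * e⁻¹ = e * (c : Γ) * e⁻¹ := by rw [← hφ, ← hφ, hbc]
    exact Subtype.ext (mul_left_cancel (mul_right_cancel h1))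
  obtain ⟨b, hb⟩ := (Finite.injective_iff_surjective.mp hinj) ⟨_, ha⟩
  have h1 : e * (b : Γ) * e⁻¹ = e * a * e⁻¹ := by rw [← hφ, hb]
  have h2 : (b : Γ) = a := mul_left_cancel (mul_right_cancel h1)
  rw [← h2]; exact b.2

/-- The trace (sum over a finite subgroup). -/
noncomputable def tr (B : Subgroup Γ) [Fintype B] : A →+ A where
  toFun v := ∑ b : B, (b : Γ) • v
  map_zero' := by simp
  map_add' v w := by simp [smul_add, Finset.sum_add_distrib]

theorem tr_apply (B : Subgroup Γ) [Fintype B] (v : A) : tr B v = ∑ b : B, (b : Γ) • v := rfl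

theorem tr_fixed (B : Subgroup Γ) [Fintype B] (v : A) (g : Γ) (hg : g ∈ B) :
    g • tr B v = tr B v := by
  rw [tr_apply, Finset.smul_sum]
  refine Fintype.sum_equiv (Equiv.mulLeft (⟨g, hg⟩ : B)) _ _ (fun b => ?_)
  show g • (b : Γ) • v = ((⟨g, hg⟩ * b : B) : Γ) • v
  rw [Subgroup.coe_mul, mul_smul]

theorem tr_smul_of_mem (B : Subgroup Γ) [Fintype B] (v : A) (g : Γ) (hg : g ∈ B) :
    tr B (g • v) = tr B v := by
  rw [tr_apply, tr_apply]
  refine Fintype.sum_equiv (Equiv.mulRight (⟨g, hg⟩ : B)) _ _ (fun b => ?_)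
  show (b : Γ) • g • v = ((b * ⟨g, hg⟩ : B) : Γ) • v
  rw [Subgroup.coe_mul, mul_smul]

theorem tr_of_fixed (B : Subgroup Γ) [Fintype B] (v : A) (hv : ∀ b ∈ B, b • v = v) :
    tr B v = Nat.card B • v := by
  have h1 : ∑ b : B, (b : Γ) • v = ∑ _b : B, v := Finset.sum_congr rfl (fun b _ => hv b b.2)
  rw [tr_apply, h1, Finset.sum_const, Finset.card_univ, Nat.card_eq_fintype_card]

theorem tr_comm (B : Subgroup Γ) [Fintype B] (v : A) (g : Γ)
    (hc : ∀ b ∈ B, g • b • v = b • g • v) : g • tr B v = tr B (g • v) := by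
  rw [tr_apply, tr_apply, Finset.smul_sum]
  exact Finset.sum_congr rfl (fun b _ => hc b b.2)

theorem tr_conj (B : Subgroup Γ) [Fintype B] (v : A) (g : Γ)
    (hn : ∀ a, a ∈ B ↔ g * a * g⁻¹ ∈ B) : g • tr B v = tr B (g • v) := by
  rw [tr_apply, tr_apply, Finset.smul_sum]
  let σ : B ≃ B :=
    { toFun := fun b => ⟨g * b * g⁻¹, (hn b).mp b.2⟩
      invFun := fun b => ⟨g⁻¹ * b * g, (hn _).mpr (by
        have h : g * (g⁻¹ * (b : Γ) * g) * g⁻¹ = b := by group
        rw [h]; exact b.2)⟩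
      left_inv := fun b => Subtype.ext (by
        show g⁻¹ * (g * (b : Γ) * g⁻¹) * g = b
        group)
      right_inv := fun b => Subtype.ext (by
        show g * (g⁻¹ * (b : Γ) * g) * g⁻¹ = b
        group) }
  refine Fintype.sum_equiv σ _ _ (fun b => ?_)
  show g • (b : Γ) • v = (g * (b : Γ) * g⁻¹) • g • v
  rw [← mul_smul, ← mul_smul]
  congr 1
  group

end Cfsg.Agent.Helper7.Frob
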