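import Mathlib
import Cfsg.Agent.Helper7.FrobA

/-!
helper7: the induction step (Mackey-style counting) for the Frobenius fixed point formula.
-/

set_option autoImplicit false

namespace Cfsg.Agent.Helper7.Frob

variable {Γ : Type*} [Group Γ] {A : Type*} [AddCommGroup A] [DistribMulAction Γ A]

/-- Vectors of `K` all of whose `E`-translates are killed by `q`. -/
def compl (E : Subgroup Γ) (K : AddSubgroup A) (q : A →+ A) : AddSubgroup A where
  carrier := {v | v ∈ K ∧ ∀ e ∈ E, q (e⁻¹ • v) = 0}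
  zero_mem' := ⟨K.zero_mem, fun e _ => by rw [smul_zero, map_zero]⟩
  add_mem' := by
    rintro a b ⟨ha, ha'⟩ ⟨hb, hb'⟩
    exact ⟨K.add_mem ha hb, fun e he => by
      rw [smul_add, map_add, ha' e he, hb' e he, add_zero]⟩
  neg_mem' := by
    rintro a ⟨ha, ha'⟩
    exact ⟨K.neg_mem ha, fun e he => by rw [smul_neg, map_neg, ha' e he, neg_zero]⟩

theorem mem_compl {E : Subgroup Γ} {K : AddSubgroup A} {q : A →+ A} {v : A} :
    v ∈ compl E K q ↔ v ∈ K ∧ ∀ e ∈ E, q (e⁻¹ • v) = 0 := Iff.rfl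

theorem ind_aux [Finite Γ] [Finite A] {ι : Type*} [Finite ι] (rep : ι → Γ)
    (E S : Subgroup Γ) (hSE : S ≤ E)
    (hrepE : ∀ x, rep x ∈ E)
    (hrep1 : ∀ x x', x ≠ x' → (rep x')⁻¹ * rep x ∉ S)
    (hrep2 : ∀ e ∈ E, ∃ x, (rep x)⁻¹ * e ∈ S)
    (hcard : Nat.card ι * Nat.card S = Nat.card E)
    (K : AddSubgroup A) (q : A →+ A) (c : ℕ)
    (hEK : ∀ e ∈ E, ∀ v ∈ K, e • v ∈ K)
    (hqK : ∀ v ∈ K, q v ∈ K)
    (hc : (Nat.card A).Coprime c)
    (hcE : (Nat.card A).Coprime (Nat.card E))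
    (ha : ∀ v ∈ K, q (q v) = c • q v)
    (hb : ∀ g ∈ S, ∀ v ∈ K, q (g • v) = g • q v)
    (hcc : ∀ e ∈ E, e ∉ S → ∀ v ∈ K, q (e • q v) = 0)
    (hd : Nat.card (K.map q) = Nat.card (fixIn S (K.map q)) ^ Nat.card S)
    (he : Nat.card (compl E K q) = Nat.card (fixIn E (compl E K q)) ^ Nat.card E) :
    Nat.card K = Nat.card (fixIn E K) ^ Nat.card E := by
  classical
  haveI : Fintype ι := Fintype.ofFinite ι
  haveI : Fintype E := Fintype.ofFinite E
  obtain ⟨Θ, hΘ⟩ : ∃ Θ : K →+ (ι → K.map q),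
      ∀ v x, ((Θ v x : K.map q) : A) = q ((rep x)⁻¹ • (v : A)) :=
    ⟨{ toFun := fun v x => ⟨q ((rep x)⁻¹ • (v : A)),
          AddSubgroup.mem_map.mpr ⟨_, hEK _ (E.inv_mem (hrepE x)) v v.2, rfl⟩⟩
       map_zero' := by
         funext x
         apply Subtype.ext
         simp
       map_add' := fun v w => by
         funext x
         apply Subtype.ext
         simp [smul_add] }, fun v x => rfl⟩
  have hΘsurj : Function.Surjective Θ := by
    intro f
    choose f' hf' using fun x => nsmul_surj (K.map q) c hc (f x)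
    have hfK : ∀ x, ((f' x : K.map q) : A) ∈ K := fun x => by
      obtain ⟨k, hk, hk'⟩ := AddSubgroup.mem_map.mp (f' x).2
      rw [← hk']; exact hqK k hk
    have hqf : ∀ x, q ((f' x : K.map q) : A) = c • ((f' x : K.map q) : A) := fun x => by
      obtain ⟨k, hk, hk'⟩ := AddSubgroup.mem_map.mp (f' x).2
      rw [← hk']; exact ha k hk
    have hvK : (∑ x, rep x • ((f' x : K.map q) : A)) ∈ K :=
      K.sum_mem (fun x _ => hEK _ (hrepE x) _ (hfK x))
    refine ⟨⟨_, hvK⟩, ?_⟩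
    funext x'
    apply Subtype.ext
    rw [hΘ, ← hf' x']
    show q ((rep x')⁻¹ • ∑ x, rep x • ((f' x : K.map q) : A)) = c • ((f' x' : K.map q) : A)
    rw [Finset.smul_sum, map_sum, Finset.sum_eq_single x']
    · rw [← mul_smul, inv_mul_cancel, one_smul, hqf]
    · intro x _ hx
      obtain ⟨k, hk, hk'⟩ := AddSubgroup.mem_map.mp (f' x).2
      rw [← mul_smul, ← hk']
      exact hcc _ (E.mul_mem (E.inv_mem (hrepE x')) (hrepE x)) (hrep1 x x' hx) k hk
    · intro h; exact absurd (Finset.mem_univ x') h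
  have hker : Nat.card Θ.ker = Nat.card (compl E K q) := by
    apply card_sub_eq K Θ.ker (compl E K q) (fun v hv => (mem_compl.mp hv).1)
    intro v
    rw [AddMonoidHom.mem_ker, mem_compl]
    constructor
    · intro hv
      refine ⟨v.2, fun e he => ?_⟩
      obtain ⟨x, hx⟩ := hrep2 e he
      have h1 : q ((rep x)⁻¹ • (v : A)) = 0 := (hΘ v x).symm.trans (by simp [hv])
      have h2 : e⁻¹ = ((rep x)⁻¹ * e)⁻¹ * (rep x)⁻¹ := by group
      rw [h2, mul_smul, hb _ (S.inv_mem hx) _ (hEK _ (E.inv_mem (hrepE x)) _ v.2), h1,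
        smul_zero]
    · intro hv
      funext x
      apply Subtype.ext
      rw [hΘ]
      exact hv.2 _ (hrepE x)
  obtain ⟨ΘE, hΘE⟩ : ∃ ΘE : (fixIn E K) →+ (fixIn S (K.map q)),
      ∀ v, ((ΘE v : fixIn S (K.map q)) : A) = q (v : A) :=
    ⟨{ toFun := fun v => ⟨q (v : A), mem_fixIn.mpr
          ⟨AddSubgroup.mem_map.mpr ⟨_, (mem_fixIn.mp v.2).1, rfl⟩, fun g hg => by
            rw [← hb g hg _ (mem_fixIn.mp v.2).1, (mem_fixIn.mp v.2).2 g (hSE hg)]⟩⟩
       map_zero' := Subtype.ext (by simp)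
       map_add' := fun v w => Subtype.ext (by simp) }, fun v => rfl⟩
  have hN0 : (Finset.univ.filter (fun e : E => (e : Γ) ∈ S)).card
      = Nat.card (S.subgroupOf E) := by
    rw [← Fintype.card_subtype, ← Nat.card_eq_fintype_card]
    exact Nat.card_congr (Equiv.subtypeEquivRight (fun x => Subgroup.mem_subgroupOf.symm))
  have hcN : (Nat.card A).Coprime
      ((Finset.univ.filter (fun e : E => (e : Γ) ∈ S)).card * c) := by
    rw [hN0]
    exact Nat.Coprime.mul_right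
      (Nat.Coprime.coprime_dvd_right (Subgroup.card_subgroup_dvd_card (S.subgroupOf E)) hcE) hc
  have hΘEsurj : Function.Surjective ΘE := by
    intro w
    obtain ⟨w', hw'⟩ := nsmul_surj (fixIn S (K.map q)) _ hcN w
    obtain ⟨hw'Q, hw'S⟩ := mem_fixIn.mp w'.2
    obtain ⟨k, hk, hk'⟩ := AddSubgroup.mem_map.mp hw'Q
    have hw'K : (w' : A) ∈ K := by rw [← hk']; exact hqK k hk
    have hqw' : q (w' : A) = c • (w' : A) := by rw [← hk']; exact ha k hk
    have hvK : tr E (w' : A) ∈ K := by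
      rw [tr_apply]
      exact K.sum_mem (fun e _ => hEK _ e.2 _ hw'K)
    have h1 : q (tr E (w' : A)) = ∑ e : E, if (e : Γ) ∈ S then c • (w' : A) else 0 := by
      rw [tr_apply, map_sum]
      refine Finset.sum_congr rfl (fun e _ => ?_)
      split_ifs with h
      · rw [hw'S _ h, hqw']
      · rw [← hk']; exact hcc _ e.2 h k hk
    rw [Finset.sum_ite, Finset.sum_const_zero, add_zero, Finset.sum_const] at h1
    refine ⟨⟨tr E (w' : A), mem_fixIn.mpr ⟨hvK, fun e he => tr_fixed E _ e he⟩⟩, ?_⟩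
    apply Subtype.ext
    rw [hΘE, ← hw']
    exact h1.trans (mul_smul _ _ _).symm
  have hkerE : Nat.card ΘE.ker = Nat.card (fixIn E (compl E K q)) := by
    apply card_sub_eq (fixIn E K) ΘE.ker (fixIn E (compl E K q))
      (fun v hv => mem_fixIn.mpr ⟨(mem_compl.mp (mem_fixIn.mp hv).1).1, (mem_fixIn.mp hv).2⟩)
    intro v
    rw [AddMonoidHom.mem_ker, mem_fixIn, mem_compl]
    obtain ⟨hvK, hvE⟩ := mem_fixIn.mp v.2
    constructor
    · intro hv
      have h1 : q (v : A) = 0 := (hΘE v).symm.trans (by simp [hv])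
      refine ⟨⟨hvK, fun e he => ?_⟩, hvE⟩
      rw [hvE _ (E.inv_mem he), h1]
    · intro hv
      apply Subtype.ext
      rw [hΘE]
      have h3 := hv.1.2 1 E.one_mem
      rw [inv_one, one_smul] at h3
      exact h3
  have h1 := card_eq_ker_mul Θ hΘsurj
  have h2 := card_eq_ker_mul ΘE hΘEsurj
  rw [h1, hker, Nat.card_fun, he, hd, h2, hkerE, ← hcard]
  ring

/-- Induction step: decompose `K` along the idempotent-like operator `q`. -/
theorem ind [Finite Γ] [Finite A] (E S : Subgroup Γ) (hSE : S ≤ E)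
    (K : AddSubgroup A) (q : A →+ A) (c : ℕ)
    (hEK : ∀ e ∈ E, ∀ v ∈ K, e • v ∈ K)
    (hqK : ∀ v ∈ K, q v ∈ K)
    (hc : (Nat.card A).Coprime c)
    (hcE : (Nat.card A).Coprime (Nat.card E))
    (ha : ∀ v ∈ K, q (q v) = c • q v)
    (hb : ∀ g ∈ S, ∀ v ∈ K, q (g • v) = g • q v)
    (hcc : ∀ e ∈ E, e ∉ S → ∀ v ∈ K, q (e • q v) = 0)
    (hd : Nat.card (K.map q) = Nat.card (fixIn S (K.map q)) ^ Nat.card S)
    (he : Nat.card (compl E K q) = Nat.card (fixIn E (compl E K q)) ^ Nat.card E) :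
    Nat.card K = Nat.card (fixIn E K) ^ Nat.card E := by
  refine ind_aux (ι := E ⧸ S.subgroupOf E) (fun x => ((Quotient.out x : E) : Γ)) E S hSE
    ?_ ?_ ?_ ?_ K q c hEK hqK hc hcE ha hb hcc hd he
  · intro x; exact (Quotient.out x : E).2
  · intro x x' hx hmem
    apply hx
    have h1 : (Quotient.out x' : E)⁻¹ * (Quotient.out x : E) ∈ S.subgroupOf E := by
      rw [Subgroup.mem_subgroupOf]
      simpa using hmem
    have h2 : ((Quotient.out x' : E) : E ⧸ S.subgroupOf E)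
        = ((Quotient.out x : E) : E ⧸ S.subgroupOf E) := QuotientGroup.eq.mpr h1
    rw [QuotientGroup.out_eq', QuotientGroup.out_eq'] at h2
    exact h2.symm
  · intro e he
    refine ⟨((⟨e, he⟩ : E) : E ⧸ S.subgroupOf E), ?_⟩
    have h1 := QuotientGroup.eq.mp
      (QuotientGroup.out_eq' (((⟨e, he⟩ : E) : E ⧸ S.subgroupOf E)))
    rw [Subgroup.mem_subgroupOf] at h1
    simpa using h1
  · rw [Subgroup.card_eq_card_quotient_mul_card_subgroup (S.subgroupOf E),
      Nat.card_congr (Subgroup.subgroupOfEquivOfLe hSE).toEquiv]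

end Cfsg.Agent.Helper7.Frob
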