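import Mathlib

namespace Cfsg.Agent.Helper7.Psu3x

open Matrix

theorem exists_order' {F : Type*} [Field F] [Fintype F] (d : ℕ) (hd : d ∣ Fintype.card F - 1)
    (hF1 : 0 < Fintype.card F - 1) : ∃ ζ : F, orderOf ζ = d := by
  classical
  obtain ⟨g, hg⟩ := IsCyclic.exists_generator (α := Fˣ)
  have hord : orderOf g = Fintype.card F - 1 := by
    rw [orderOf_eq_card_of_forall_mem_zpowers hg, Nat.card_eq_fintype_card, Fintype.card_units]
  obtain ⟨e, he⟩ := hd
  have he0 : 0 < e := by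
    rcases Nat.eq_zero_or_pos e with h | h
    · rw [h, mul_zero] at he; omega
    · exact h
  refine ⟨((g ^ e : Fˣ) : F), ?_⟩
  rw [orderOf_units, orderOf_pow, hord, he, Nat.gcd_mul_left_left]
  exact Nat.mul_div_cancel _ he0

/-- the power formula -/
theorem pow_formula {F : Type*} [Field F] (a κ β : F) (ha : a ≠ 0) (hβ : β ≠ 0) (j : ℕ) :
    (!![a * (1 + κ), -(a * κ * β⁻¹), 0; a * κ * β, a * (1 - κ), 0; 0, 0, (a⁻¹) ^ 2] : Matrix (Fin 3) (Fin 3) F) ^ j =
    !![a ^ j * (1 + j * κ), -(a ^ j * j * κ * β⁻¹), 0; a ^ j * j * κ * β, a ^ j * (1 - j * κ), 0; 0, 0, (a⁻¹) ^ (2 * j)] := by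
  induction j with
  | zero =>
    ext i k
    fin_cases i <;> fin_cases k <;> simp
  | succ j ih =>
    rw [pow_succ, ih]
    ext i k
    fin_cases i <;> fin_cases k <;>
      simp [Matrix.mul_apply, Fin.sum_univ_three] <;> field_simp <;> ring

theorem ex_b {F : Type*} [Field F] [Fintype F] (p : ℕ) [Fact p.Prime] [CharP F p] (q : ℕ) (hF : Fintype.card F = q ^ 2) (hp : p ≠ 2) : ∃ M : Matrix (Fin 3) (Fin 3) F, Mᵀ * M.map (fun x => x ^ q) = 1 ∧ M.det = 1 ∧ (∃ c : F, M ^ (p * (q + 1) / Nat.gcd 3 (q + 1)) = c • (1 : Matrix (Fin 3) (Fin 3) F)) ∧ ∀ j : ℕ, (∃ c : F, M ^ j = c • (1 : Matrix (Fin 3) (Fin 3) F)) → (p * (q + 1) / Nat.gcd 3 (q + 1)) ∣ j := by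
  classical
  have hpp : p.Prime := Fact.out
  obtain ⟨k, -, hk⟩ := FiniteField.card F p
  have hq0 : q ≠ 0 := by
    rintro rfl
    have : 0 < Fintype.card F := Fintype.card_pos
    rw [hF] at this
    simp at this
  have hprime_dvd : ∀ d : ℕ, d.Prime → d ∣ q → d = p := by
    intro d hd hdq
    have h1 : d ∣ p ^ (k : ℕ) := by rw [← hk, hF]; exact dvd_pow hdq two_ne_zero
    exact (Nat.prime_dvd_prime_iff_eq hd hpp).1 (hd.dvd_of_dvd_pow h1)
  obtain ⟨m, hm⟩ : ∃ m : ℕ, q = p ^ m := ⟨_, Nat.eq_prime_pow_of_unique_prime_dvd hq0 (fun {d} hd hdq => hprime_dvd d hd hdq)⟩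
  have hpq : p ∣ q := by
    have : p ∣ q ^ 2 := by rw [← hF, hk]; exact dvd_pow_self p k.ne_zero
    exact hpp.dvd_of_dvd_pow this
  have hq2 : 2 ≤ q := le_trans hpp.two_le (Nat.le_of_dvd (Nat.pos_of_ne_zero hq0) hpq)
  have hqodd : Odd q := by
    by_contra hcon
    have h2 : 2 ∣ q := (Nat.not_odd_iff_even.1 hcon).two_dvd
    exact hp (hprime_dvd 2 Nat.prime_two h2).symm
  have hcard1 : Fintype.card F - 1 = (q + 1) * (q - 1) := by
    rw [hF]
    have := Nat.sq_sub_sq q 1
    rw [one_pow] at this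
    exact this
  have hpos1 : 0 < Fintype.card F - 1 := by
    rw [hcard1]
    exact Nat.mul_pos (by omega) (by omega)
  have h2m : 2 ∣ q - 1 := by
    obtain ⟨t, ht⟩ := hqodd
    exact ⟨t, by omega⟩
  have h2p : 2 ∣ q + 1 := by
    obtain ⟨t, ht⟩ := hqodd
    exact ⟨t + 1, by omega⟩
  -- additivity of x ↦ x ^ q
  have hadd : ∀ x y : F, (x + y) ^ q = x ^ q + y ^ q := by
    intro x y
    rw [hm]
    exact add_pow_char_pow x y p m
  have hsub : ∀ x y : F, (x - y) ^ q = x ^ q - y ^ q := by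
    intro x y
    rw [hm]
    exact sub_pow_char_pow x y m
  have hnegq : ∀ x : F, (-x) ^ q = -(x ^ q) := by
    intro x
    exact hqodd.neg_pow x
  -- the elements
  obtain ⟨a, ha⟩ := exists_order' (F := F) (q + 1) (by rw [hcard1]; exact dvd_mul_right _ _) hpos1
  obtain ⟨β, hβ⟩ := exists_order' (F := F) (2 * (q + 1)) (by
    rw [hcard1]
    obtain ⟨t, ht⟩ := h2m
    exact ⟨t, by rw [ht]; ring⟩) hpos1
  obtain ⟨κ, hκ⟩ := exists_order' (F := F) (2 * (q - 1)) (by
    rw [hcard1]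
    obtain ⟨t, ht⟩ := h2p
    exact ⟨t, by rw [ht]; ring⟩) hpos1
  have hane : a ≠ 0 := by
    rintro rfl
    rw [orderOf_zero] at ha <;> omega
  have hβne : β ≠ 0 := by
    rintro rfl
    rw [orderOf_zero] at hβ <;> omega
  have hκne : κ ≠ 0 := by
    rintro rfl
    rw [orderOf_zero] at hκ <;> omega
  have haq1 : a ^ (q + 1) = 1 := by rw [← ha]; exact pow_orderOf_eq_one a
  have haq : a ^ q = a⁻¹ := by
    rw [pow_succ] at haq1
    exact eq_inv_of_mul_eq_one_left haq1
  have hβq1 : β ^ (q + 1) = -1 := by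
    have h1 : β ^ (q + 1) * β ^ (q + 1) = 1 := by
      rw [← pow_add, ← two_mul, ← hβ]; exact pow_orderOf_eq_one β
    rcases mul_self_eq_one_iff.1 h1 with h | h
    · exfalso
      have := orderOf_dvd_of_pow_eq_one h
      rw [hβ] at this
      have := Nat.le_of_dvd (by omega) this
      omega
    · exact h
  have hβq : β ^ q = -β⁻¹ := by
    rw [pow_succ] at hβq1
    field_simp
    linear_combination hβq1
  have hκq1 : κ ^ (q - 1) = -1 := by
    have h1 : κ ^ (q - 1) * κ ^ (q - 1) = 1 := by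
      rw [← pow_add, ← two_mul, ← hκ]; exact pow_orderOf_eq_one κ
    rcases mul_self_eq_one_iff.1 h1 with h | h
    · exfalso
      have := orderOf_dvd_of_pow_eq_one h
      rw [hκ] at this
      have := Nat.le_of_dvd (by omega) this
      omega
    · exact h
  have hκq : κ ^ q = -κ := by
    have : q = (q - 1) + 1 := by omega
    rw [this, pow_succ, hκq1]
    ring
  -- arithmetic of d = gcd 3 (q+1)
  have hd0' : 0 < Nat.gcd 3 (q + 1) := Nat.gcd_pos_of_pos_left _ (by norm_num)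
  have hcop0 : Nat.Coprime ((q + 1) / Nat.gcd 3 (q + 1)) (3 / Nat.gcd 3 (q + 1)) :=
    (Nat.coprime_div_gcd_div_gcd (m := 3) (n := q + 1) hd0').symm
  have hNe0 : p * (q + 1) / Nat.gcd 3 (q + 1) = p * ((q + 1) / Nat.gcd 3 (q + 1)) :=
    Nat.mul_div_assoc p (Nat.gcd_dvd_right _ _)
  generalize hd_def : Nat.gcd 3 (q + 1) = d at hd0' hcop0 hNe0 ⊢
  obtain ⟨e, he⟩ : ∃ e, q + 1 = d * e := by rw [← hd_def]; exact Nat.gcd_dvd_right 3 (q + 1)
  obtain ⟨t, ht⟩ : ∃ t, 3 = d * t := by rw [← hd_def]; exact Nat.gcd_dvd_left 3 (q + 1)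
  have hdive : (q + 1) / d = e := Nat.div_eq_of_eq_mul_right hd0' he
  have hdivt : 3 / d = t := Nat.div_eq_of_eq_mul_right hd0' ht
  rw [hdive, hdivt] at hcop0
  rw [hdive] at hNe0
  rw [hNe0]
  -- the matrix
  refine ⟨!![a * (1 + κ), -(a * κ * β⁻¹), 0; a * κ * β, a * (1 - κ), 0; 0, 0, (a⁻¹) ^ 2], ?_, ?_, ?_, ?_⟩
  · -- unitary
    have e11 : (a * (1 + κ)) ^ q = a⁻¹ * (1 - κ) := by
      rw [mul_pow, hadd, one_pow, hκq, haq]; ring
    have e12 : (-(a * κ * β⁻¹)) ^ q = -(a⁻¹ * κ * β) := by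
      rw [hnegq, mul_pow, mul_pow, inv_pow, hκq, haq, hβq]
      field_simp
    have e21 : (a * κ * β) ^ q = a⁻¹ * κ * β⁻¹ := by
      rw [mul_pow, mul_pow, hκq, haq, hβq]; ring
    have e22 : (a * (1 - κ)) ^ q = a⁻¹ * (1 + κ) := by
      rw [mul_pow, hsub, one_pow, hκq, haq]; ring
    have e33 : ((a⁻¹) ^ 2) ^ q = a ^ 2 := by
      rw [← pow_mul, mul_comm, pow_mul, inv_pow, haq, inv_inv]
    have e0 : (0 : F) ^ q = 0 := zero_pow hq0
    have e33' : a ^ 2 * a ^ (q * 2) = 1 := by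
      rw [← pow_add, show 2 + q * 2 = (q + 1) * 2 by ring, pow_mul, haq1, one_pow]
    ext i k
    fin_cases i <;> fin_cases k <;>
      simp [Matrix.mul_apply, Fin.sum_univ_three, e11, e12, e21, e22, e0] <;>
      first
        | (field_simp; exact e33'.symm)
        | (field_simp; ring1)
        | (field_simp; linear_combination (-1 : F) * e33')
  · -- det
    rw [Matrix.det_fin_three]
    simp
    field_simp
    ring
  · -- the power is scalar
    refine ⟨a ^ (p * e), ?_⟩
    rw [pow_formula a κ β hane hβne]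
    have hcast : ((p * e : ℕ) : F) = 0 := by
      rw [Nat.cast_mul, CharP.cast_eq_zero F p, zero_mul]
    have h3 : a ^ (3 * (p * e)) = 1 := by
      have : 3 * (p * e) = (q + 1) * (p * t) := by
        calc 3 * (p * e) = d * t * (p * e) := by rw [← ht]
          _ = d * e * (p * t) := by ring
          _ = (q + 1) * (p * t) := by rw [← he]
      rw [this, pow_mul, haq1, one_pow]
    have h33 : (a⁻¹) ^ (2 * (p * e)) = a ^ (p * e) := by
      have h4 : a ^ (p * e) * a ^ (2 * (p * e)) = 1 := by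
        rw [← pow_add, ← h3]
        congr 1
        ring
      rw [inv_pow]
      exact (eq_inv_of_mul_eq_one_left h4).symm
    ext i k
    fin_cases i <;> fin_cases k <;> simp [hcast, h33, Matrix.one_apply]
  · -- minimality
    intro j hj
    obtain ⟨c, hc⟩ := hj
    rw [pow_formula a κ β hane hβne] at hc
    have h21 := congrFun (congrFun hc 1) 0
    have h11 := congrFun (congrFun hc 0) 0
    have h33 := congrFun (congrFun hc 2) 2
    simp at h21 h11 h33
    have hj0 : (j : F) = 0 := by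
      rcases h21 with ((h | h) | h) | h
      · exact absurd h.1 hane
      · exact h
      · exact absurd h hκne
      · exact absurd h hβne
    have hpj : p ∣ j := (CharP.cast_eq_zero_iff F p j).1 hj0
    rw [hj0, zero_mul, add_zero, mul_one] at h11
    have h3j : a ^ (3 * j) = 1 := by
      have h5 : a ^ (2 * j) ≠ 0 := pow_ne_zero _ hane
      have h6 : a ^ j * a ^ (2 * j) = 1 := by
        rw [h11, ← h33]
        exact inv_mul_cancel₀ h5
      rw [← h6, ← pow_add]
      congr 1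
      ring
    have hdvd : q + 1 ∣ 3 * j := by
      rw [← ha]
      exact orderOf_dvd_of_pow_eq_one h3j
    have hej : e ∣ j := by
      have h7 : d * e ∣ d * (t * j) := by
        rw [← he, ← mul_assoc, ← ht]
        exact hdvd
      have h8 : e ∣ t * j := (Nat.mul_dvd_mul_iff_left hd0').1 h7
      exact hcop0.dvd_of_dvd_mul_left h8
    have hcop_pe : Nat.Coprime p e := by
      have h9 : Nat.Coprime p (q + 1) := by
        have h10 : Nat.Coprime q (q + 1) := by simp
        exact Nat.Coprime.coprime_dvd_left hpq h10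
      rw [he] at h9
      exact Nat.Coprime.coprime_mul_left_right h9
    exact Nat.Coprime.mul_dvd_of_dvd_of_dvd hcop_pe hpj hej

end Cfsg.Agent.Helper7.Psu3x
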