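import Mathlib
import Cfsg.Prelude.Def_GeometricClasses

set_option autoImplicit false

open scoped MatrixGroups

namespace Cfsg.Agent.Helper7.S5998p3

theorem p3 {F : Type*} [Field F] (R : Subgroup (GL (Fin 3) F)) [Finite R] (a b u g : GL (Fin 3) F) (hRab : R = Subgroup.closure {a, b})
    (A B Y Wa Wb : Matrix (Fin 3) (Fin 3) F) (c : F)
    (ha : (a : Matrix (Fin 3) (Fin 3) F) * (g : Matrix (Fin 3) (Fin 3) F) = (g : Matrix (Fin 3) (Fin 3) F) * A)
    (hb : (b : Matrix (Fin 3) (Fin 3) F) * (g : Matrix (Fin 3) (Fin 3) F) = (g : Matrix (Fin 3) (Fin 3) F) * B)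
    (hu : (u : Matrix (Fin 3) (Fin 3) F) * (g : Matrix (Fin 3) (Fin 3) F) = c • ((g : Matrix (Fin 3) (Fin 3) F) * Y))
    (hWa : Y * A = Wa * Y) (hWb : Y * B = Wb * Y)
    (hWaR : ∃ a' ∈ R, (a' : Matrix (Fin 3) (Fin 3) F) * (g : Matrix (Fin 3) (Fin 3) F) = (g : Matrix (Fin 3) (Fin 3) F) * Wa)
    (hWbR : ∃ b' ∈ R, (b' : Matrix (Fin 3) (Fin 3) F) * (g : Matrix (Fin 3) (Fin 3) F) = (g : Matrix (Fin 3) (Fin 3) F) * Wb) :
    u ∈ Cfsg.Geo.subgroupNormalizer R := by
  obtain ⟨a', ha'R, ha'⟩ := hWaR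
  obtain ⟨b', hb'R, hb'⟩ := hWbR
  have key : ∀ (s s' : GL (Fin 3) F) (S W : Matrix (Fin 3) (Fin 3) F),
      (s : Matrix (Fin 3) (Fin 3) F) * (g : Matrix (Fin 3) (Fin 3) F) =
        (g : Matrix (Fin 3) (Fin 3) F) * S →
      Y * S = W * Y →
      (s' : Matrix (Fin 3) (Fin 3) F) * (g : Matrix (Fin 3) (Fin 3) F) =
        (g : Matrix (Fin 3) (Fin 3) F) * W →
      u * s * u⁻¹ = s' := by
    intro s s' S W hs hYS hs'
    have h1 : ((u * s : GL (Fin 3) F) : Matrix (Fin 3) (Fin 3) F) * (g : Matrix (Fin 3) (Fin 3) F) =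
        ((s' * u : GL (Fin 3) F) : Matrix (Fin 3) (Fin 3) F) * (g : Matrix (Fin 3) (Fin 3) F) := by
      rw [Units.val_mul, Units.val_mul]
      calc (u : Matrix (Fin 3) (Fin 3) F) * (s : Matrix (Fin 3) (Fin 3) F) *
            (g : Matrix (Fin 3) (Fin 3) F)
          = (u : Matrix (Fin 3) (Fin 3) F) * ((s : Matrix (Fin 3) (Fin 3) F) *
            (g : Matrix (Fin 3) (Fin 3) F)) := mul_assoc _ _ _
        _ = (u : Matrix (Fin 3) (Fin 3) F) * ((g : Matrix (Fin 3) (Fin 3) F) * S) := by rw [hs]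
        _ = ((u : Matrix (Fin 3) (Fin 3) F) * (g : Matrix (Fin 3) (Fin 3) F)) * S :=
            (mul_assoc _ _ _).symm
        _ = c • ((g : Matrix (Fin 3) (Fin 3) F) * Y) * S := by rw [hu]
        _ = c • ((g : Matrix (Fin 3) (Fin 3) F) * (Y * S)) := by rw [smul_mul_assoc, mul_assoc]
        _ = c • ((g : Matrix (Fin 3) (Fin 3) F) * (W * Y)) := by rw [hYS]
        _ = c • (((g : Matrix (Fin 3) (Fin 3) F) * W) * Y) := by rw [mul_assoc]
        _ = c • (((s' : Matrix (Fin 3) (Fin 3) F) * (g : Matrix (Fin 3) (Fin 3) F)) * Y) := by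
            rw [hs']
        _ = (s' : Matrix (Fin 3) (Fin 3) F) * (c • ((g : Matrix (Fin 3) (Fin 3) F) * Y)) := by
            rw [mul_smul_comm, mul_assoc]
        _ = (s' : Matrix (Fin 3) (Fin 3) F) * ((u : Matrix (Fin 3) (Fin 3) F) *
            (g : Matrix (Fin 3) (Fin 3) F)) := by rw [hu]
        _ = (s' : Matrix (Fin 3) (Fin 3) F) * (u : Matrix (Fin 3) (Fin 3) F) *
            (g : Matrix (Fin 3) (Fin 3) F) := (mul_assoc _ _ _).symm
    have h2 : u * s = s' * u := Units.ext ((Units.mul_left_inj g).1 h1)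
    rw [h2, mul_inv_cancel_right]
  have hua : u * a * u⁻¹ ∈ R := by rw [key a a' A Wa ha hWa ha']; exact ha'R
  have hub : u * b * u⁻¹ ∈ R := by rw [key b b' B Wb hb hWb hb']; exact hb'R
  have hsub : ∀ h ∈ R, u * h * u⁻¹ ∈ R := by
    intro h hh
    have hle : Subgroup.closure {a, b} ≤ R.comap (MulAut.conj u).toMonoidHom := by
      rw [Subgroup.closure_le]
      intro s hs
      rw [Set.mem_insert_iff, Set.mem_singleton_iff] at hs
      rcases hs with hs | hs
      · rw [hs]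
        show (MulAut.conj u) a ∈ R
        rw [MulAut.conj_apply]; exact hua
      · rw [hs]
        show (MulAut.conj u) b ∈ R
        rw [MulAut.conj_apply]; exact hub
    rw [hRab] at hh
    have h3 := hle hh
    have h4 : (MulAut.conj u) h ∈ R := h3
    rw [MulAut.conj_apply] at h4
    exact h4
  show u ∈ Subgroup.normalizer (R : Set (GL (Fin 3) F))
  rw [Subgroup.mem_set_normalizer_iff]
  intro h
  constructor
  · intro hh
    exact hsub h hh
  · intro hh
    have hinj : Function.Injective (fun r : R => (⟨u * r * u⁻¹, hsub r r.2⟩ : R)) := by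
      intro r s hrs
      have h5 := congrArg Subtype.val hrs
      simp only [mul_left_inj, mul_right_inj] at h5
      exact Subtype.ext h5
    have hsurj := Finite.injective_iff_surjective.1 hinj
    obtain ⟨r, hr⟩ := hsurj ⟨u * h * u⁻¹, hh⟩
    have h5 := congrArg Subtype.val hr
    simp only [mul_left_inj, mul_right_inj] at h5
    have h6 : h ∈ R := by rw [← h5]; exact r.2
    exact h6

end Cfsg.Agent.Helper7.S5998p3
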