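import Mathlib
import Cfsg.Prelude.Def_GeometricClasses

set_option autoImplicit false

open scoped MatrixGroups

namespace Cfsg.Agent.Helper7.S5998p4

theorem p4 {F : Type*} [Field F] (N : Subgroup (GL (Fin 3) F)) (x k g : GL (Fin 3) F) (Y E : Matrix (Fin 3) (Fin 3) F) (c : F)
    (hx : (x : Matrix (Fin 3) (Fin 3) F) * (k : Matrix (Fin 3) (Fin 3) F) = c • ((k : Matrix (Fin 3) (Fin 3) F) * Y))
    (hE : E * Y = Y * E) (hdet : E.det * (k : Matrix (Fin 3) (Fin 3) F).det = (g : Matrix (Fin 3) (Fin 3) F).det)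
    (hN : ∀ u : GL (Fin 3) F, (u : Matrix (Fin 3) (Fin 3) F) * (g : Matrix (Fin 3) (Fin 3) F) = c • ((g : Matrix (Fin 3) (Fin 3) F) * Y) → u ∈ N) :
    ∃ h ∈ Cfsg.Geo.specialLinear (Fin 3) F, h⁻¹ * x * h ∈ N := by
  have hgdet : (g : Matrix (Fin 3) (Fin 3) F).det ≠ 0 :=
    ((Matrix.isUnit_iff_isUnit_det _).1 g.isUnit).ne_zero
  have hE0 : E.det ≠ 0 := by
    intro h0
    rw [h0, zero_mul] at hdet
    exact hgdet hdet.symm
  obtain ⟨e, he⟩ : IsUnit E := (Matrix.isUnit_iff_isUnit_det E).2 (isUnit_iff_ne_zero.2 hE0)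
  refine ⟨k * e * g⁻¹, ?_, ?_⟩
  · rw [Cfsg.Geo.specialLinear, MonoidHom.mem_ker, map_mul, map_mul, map_inv, mul_inv_eq_one]
    apply Units.ext
    rw [Units.val_mul, Matrix.GeneralLinearGroup.val_det_apply,
      Matrix.GeneralLinearGroup.val_det_apply, Matrix.GeneralLinearGroup.val_det_apply, he,
      mul_comm]
    exact hdet
  · apply hN
    have h1 : (k * e * g⁻¹)⁻¹ * x * (k * e * g⁻¹) * g = g * e⁻¹ * k⁻¹ * x * k * e := by group
    have h2 : (((k * e * g⁻¹)⁻¹ * x * (k * e * g⁻¹) : GL (Fin 3) F) : Matrix (Fin 3) (Fin 3) F) *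
        (g : Matrix (Fin 3) (Fin 3) F) =
        ((g * e⁻¹ * k⁻¹ * x * k * e : GL (Fin 3) F) : Matrix (Fin 3) (Fin 3) F) := by
      rw [← Units.val_mul, h1]
    rw [h2]
    simp only [Units.val_mul]
    have e1 : ((e⁻¹ : GL (Fin 3) F) : Matrix (Fin 3) (Fin 3) F) * E = 1 := by
      rw [← he, Units.inv_mul]
    have k1 : ((k⁻¹ : GL (Fin 3) F) : Matrix (Fin 3) (Fin 3) F) *
        (k : Matrix (Fin 3) (Fin 3) F) = 1 := Units.inv_mul k
    calc (g : Matrix (Fin 3) (Fin 3) F) * ((e⁻¹ : GL (Fin 3) F) : Matrix (Fin 3) (Fin 3) F) *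
          ((k⁻¹ : GL (Fin 3) F) : Matrix (Fin 3) (Fin 3) F) * (x : Matrix (Fin 3) (Fin 3) F) *
          (k : Matrix (Fin 3) (Fin 3) F) * (e : Matrix (Fin 3) (Fin 3) F)
        = (g : Matrix (Fin 3) (Fin 3) F) * (((e⁻¹ : GL (Fin 3) F) : Matrix (Fin 3) (Fin 3) F) *
          (((k⁻¹ : GL (Fin 3) F) : Matrix (Fin 3) (Fin 3) F) *
          (((x : Matrix (Fin 3) (Fin 3) F) * (k : Matrix (Fin 3) (Fin 3) F)) * E))) := by
          rw [he]; simp only [mul_assoc]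
      _ = c • ((g : Matrix (Fin 3) (Fin 3) F) * (((e⁻¹ : GL (Fin 3) F) : Matrix (Fin 3) (Fin 3) F) *
          ((((k⁻¹ : GL (Fin 3) F) : Matrix (Fin 3) (Fin 3) F) * (k : Matrix (Fin 3) (Fin 3) F)) *
          (Y * E)))) := by
          rw [hx]; simp only [mul_smul_comm, smul_mul_assoc, mul_assoc]
      _ = c • ((g : Matrix (Fin 3) (Fin 3) F) * Y) := by
          rw [k1, one_mul, ← hE, ← mul_assoc ((e⁻¹ : GL (Fin 3) F) : Matrix (Fin 3) (Fin 3) F), e1,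
            one_mul]

end Cfsg.Agent.Helper7.S5998p4
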